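import Cfsg.Agent.Lib.Y532.D.Top
import Cfsg.Agent.Lib.Y532.D.S1
import Cfsg.Agent.Lib.Y532.D.S2
import Cfsg.Agent.Lib.Y532.D.S3
import Cfsg.Agent.Lib.Y532.D.E7
import Cfsg.Agent.Lib.Y532.D.E6
import Cfsg.Agent.Lib.Y532.D.D5
import Cfsg.Agent.Lib.Y532.D.D4
import Cfsg.Agent.Lib.Y532.D.A3
import Cfsg.Agent.Lib.Y532.D.A2
import Cfsg.Agent.Lib.Y532.D.A1

/-! The group on `Y₅₃₂` with the spider relation has at most `2 |Fi₂₃|` elements. -/

namespace Cfsg.Agent.Lib.Y532.Bound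

open Cfsg.Agent.Lib.TC.Core Cfsg.Agent.Lib.TC.Enc Cfsg.Agent.Lib.TC.Pres Cfsg.Agent.Lib.TC.Perm
  Cfsg.Agent.Lib.TC.Main Cfsg.Agent.Lib.TC.Chain

set_option maxRecDepth 100000

open Cfsg.Agent.Lib.Y532.G

theorem bound : Nat.card (PresentedGroup Rel) ≠ 0 ∧
    Nat.card (PresentedGroup Rel) ≤ 8178940946586009600 := by
  have b0 := bound_nil (K.E Rel)
  have h0 : Lt (K.E Rel) Cfsg.Agent.Lib.Y532.D.A1_Tab.ls' = Lt (K.E Rel) [] := rfl
  rw [← h0] at b0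
  have b1 := bound_up Cfsg.Agent.Lib.Y532.D.A1.stage b0
  have b2 := bound_up Cfsg.Agent.Lib.Y532.D.A2.stage b1
  have b3 := bound_up Cfsg.Agent.Lib.Y532.D.A3.stage b2
  have b4 := bound_up Cfsg.Agent.Lib.Y532.D.D4.stage b3
  have b5 := bound_up Cfsg.Agent.Lib.Y532.D.D5.stage b4
  have b6 := bound_up Cfsg.Agent.Lib.Y532.D.E6.stage b5
  have b7 := bound_up Cfsg.Agent.Lib.Y532.D.E7.stage b6
  have b8 := bound_up Cfsg.Agent.Lib.Y532.D.S3.stage b7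
  have b9 := bound_up Cfsg.Agent.Lib.Y532.D.S2.stage b8
  have b10 := bound_up Cfsg.Agent.Lib.Y532.D.S1.stage b9
  have b11 := bound_up Cfsg.Agent.Lib.Y532.D.Top.stage b10
  have b := bound_top valid _ (by decide +kernel) b11
  exact b

end Cfsg.Agent.Lib.Y532.Bound
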