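import Cfsg.Agent.Lib.TC.Main

/-! The Coxeter presentation on the diagram `Y₅₃₂` with the spider relation, for coset enumeration. -/

namespace Cfsg.Agent.Lib.Y532.G

open Cfsg.Spor Cfsg.Agent.Lib.TC.Pres Cfsg.Agent.Lib.TC.Main Cfsg.Agent.Lib.TC.Enc

/-- The eleven nodes of `Y₅₃₂`. -/
inductive Gen
  | a | b1 | c1 | d1 | e1 | f1 | b2 | c2 | d2 | b3 | c3
  deriving DecidableEq

/-- The edges of `Y₅₃₂`. -/
def edges : List (Gen × ℕ × Gen) :=
  [(.a, 3, .b1), (.a, 3, .b2), (.a, 3, .b3), (.b1, 3, .c1), (.c1, 3, .d1), (.d1, 3, .e1),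
   (.e1, 3, .f1), (.b2, 3, .c2), (.c2, 3, .d2), (.b3, 3, .c3)]

/-- The column of a generator. -/
def colF : Gen → Nat
  | .a => 0
  | .b1 => 1
  | .c1 => 2
  | .d1 => 3
  | .e1 => 4
  | .f1 => 5
  | .b2 => 6
  | .c2 => 7
  | .d2 => 8
  | .b3 => 9
  | .c3 => 10

/-- The generator of a column. -/
def genF (c : Nat) : Gen :=
  [Gen.a,Gen.b1,Gen.c1,Gen.d1,Gen.e1,Gen.f1,Gen.b2,Gen.c2,Gen.d2,Gen.b3,Gen.c3].getD c Gen.a

/-- The sign of a column. -/
def sgnF (c : Nat) : Bool :=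
  [true,true,true,true,true,true,true,true,true,true,true].getD c true

/-- The inverse column. -/
def invF (c : Nat) : Nat :=
  [0,1,2,3,4,5,6,7,8,9,10].getD c 0

/-- The columns. -/
def K : Cols Gen := ⟨11, colF, genF, sgnF, invF⟩

/-- The words of the further relators. -/
def extraW : List (List (Gen × Bool)) :=
  [[(Gen.a,true),(Gen.b1,true),(Gen.c1,true),(Gen.a,true),(Gen.b2,true),(Gen.c2,true),(Gen.a,true),(Gen.b3,true),(Gen.c3,true),(Gen.a,true),(Gen.b1,true),(Gen.c1,true),(Gen.a,true),(Gen.b2,true),(Gen.c2,true),(Gen.a,true),(Gen.b3,true),(Gen.c3,true),(Gen.a,true),(Gen.b1,true),(Gen.c1,true),(Gen.a,true),(Gen.b2,true),(Gen.c2,true),(Gen.a,true),(Gen.b3,true),(Gen.c3,true),(Gen.a,true),(Gen.b1,true),(Gen.c1,true),(Gen.a,true),(Gen.b2,true),(Gen.c2,true),(Gen.a,true),(Gen.b3,true),(Gen.c3,true),(Gen.a,true),(Gen.b1,true),(Gen.c1,true),(Gen.a,true),(Gen.b2,true),(Gen.c2,true),(Gen.a,true),(Gen.b3,tru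e),(Gen.c3,true),(Gen.a,true),(Gen.b1,true),(Gen.c1,true),(Gen.a,true),(Gen.b2,true),(Gen.c2,true),(Gen.a,true),(Gen.b3,true),(Gen.c3,true),(Gen.a,true),(Gen.b1,true),(Gen.c1,true),(Gen.a,true),(Gen.b2,true),(Gen.c2,true),(Gen.a,true),(Gen.b3,true),(Gen.c3,true),(Gen.a,true),(Gen.b1,true),(Gen.c1,true),(Gen.a,true),(Gen.b2,true),(Gen.c2,true),(Gen.a,true),(Gen.b3,true),(Gen.c3,true),(Gen.a,true),(Gen.b1,true),(Gen.c1,true),(Gen.a,true),(Gen.b2,true),(Gen.c2,true),(Gen.a,true),(Gen.b3,true),(Gen.c3,true),(Gen.a,true),(Gen.b1,true),(Gen.c1,true),(Gen.a,true),(Gen.b2,true),(Gen.c2,true),(Gen.a,true),(Gen.b3,true),(Gen.c3,true)]]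

/-- The further relators. -/
def extra : List (FreeGroup Gen) := extraW.map FreeGroup.mk

/-- The relators. -/
abbrev Rel : Set (FreeGroup Gen) :=
  coxRelators edges ∪ {r | r ∈ extra}

theorem extra_eq : extra = extraW.map FreeGroup.mk := rfl

/-- The words of the relators, in the order of application. -/
def rels : List (List Nat) :=
  [[0,0],
   [1,0,1,0,1,0],
   [1,1],
   [2,0,2,0],
   [2,1,2,1,2,1],
   [2,2],
   [3,0,3,0],
   [3,1,3,1],
   [3,2,3,2,3,2],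
   [3,3],
   [4,0,4,0],
   [4,1,4,1],
   [4,2,4,2],
   [4,3,4,3,4,3],
   [4,4],
   [5,0,5,0],
   [5,1,5,1],
   [5,2,5,2],
   [5,3,5,3],
   [5,4,5,4,5,4],
   [5,5],
   [6,0,6,0,6,0],
   [6,1,6,1],
   [6,2,6,2],
   [6,3,6,3],
   [6,4,6,4],
   [6,5,6,5],
   [6,6],
   [7,0,7,0],
   [7,1,7,1],
   [7,2,7,2],
   [7,3,7,3],
   [7,4,7,4],
   [7,5,7,5],
   [7,6,7,6,7,6],
   [7,7],
   [8,0,8,0],
   [8,1,8,1],
   [8,2,8,2],
   [8,3,8,3],
   [8,4,8,4],
   [8,5,8,5],
   [8,6,8,6],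
   [8,7,8,7,8,7],
   [8,8],
   [9,0,9,0,9,0],
   [9,1,9,1],
   [9,2,9,2],
   [9,3,9,3],
   [9,4,9,4],
   [9,5,9,5],
   [9,6,9,6],
   [9,7,9,7],
   [9,8,9,8],
   [9,9],
   [10,0,10,0],
   [10,1,10,1],
   [10,2,10,2],
   [10,3,10,3],
   [10,4,10,4],
   [10,5,10,5],
   [10,6,10,6],
   [10,7,10,7],
   [10,8,10,8],
   [10,9,10,9,10,9],
   [10,10],
   [10,9,0,7,6,0,2,1,0,10,9,0,7,6,0,2,1,0,10,9,0,7,6,0,2,1,0,10,9,0,7,6,0,2,1,0,10,9,0,7,6,0,2,1,0,10,9,0,7,6,0,2,1,0,10,9,0,7,6,0,2,1,0,10,9,0,7,6,0,2,1,0,10,9,0,7,6,0,2,1,0,10,9,0,7,6,0,2,1,0]]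

theorem hcover : chkCover K edges extraW rels = true := by decide +kernel

theorem hsound : chkSound K edges extraW rels = true := by decide +kernel

theorem hR : ∀ r ∈ Rel, ∃ L, r = FreeGroup.mk L ∧ ∃ j, rotN (K.word L) j ∈ rels :=
  hR_of_chk (K := K) (edges := edges) (rels := rels) extra_eq hcover

theorem hrels : ∀ l ∈ rels, ∃ L, FreeGroup.mk L ∈ Rel ∧ l = K.word L :=
  hrels_of_chk (K := K) (edges := edges) (rels := rels) extra_eq hsound

theorem valid : K.Valid (R := Rel) where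
  col_lt := by intro x; cases x <;> decide
  gen_col := by intro x; cases x <;> rfl
  sgn_col := by intro x; cases x <;> rfl
  inv_lt := by decide
  col_gen := by decide
  inv_true := by decide
  inv_false := by decide
  invol := by
    intro c hc hi
    have hc' : c < 11 := hc
    interval_cases c
    · exact ⟨rfl, node_invol (edges := edges) (by decide)⟩
    · exact ⟨rfl, node_invol (edges := edges) (by decide)⟩
    · exact ⟨rfl, node_invol (edges := edges) (by decide)⟩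
    · exact ⟨rfl, node_invol (edges := edges) (by decide)⟩
    · exact ⟨rfl, node_invol (edges := edges) (by decide)⟩
    · exact ⟨rfl, node_invol (edges := edges) (by decide)⟩
    · exact ⟨rfl, node_invol (edges := edges) (by decide)⟩
    · exact ⟨rfl, node_invol (edges := edges) (by decide)⟩
    · exact ⟨rfl, node_invol (edges := edges) (by decide)⟩
    · exact ⟨rfl, node_invol (edges := edges) (by decide)⟩
    · exact ⟨rfl, node_invol (edges := edges) (by decide)⟩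

end Cfsg.Agent.Lib.Y532.G
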