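import Cfsg.Agent.Lib.Y532.Hom
import Cfsg.Prelude.Def_Spor_M

/-!
# The relations on the diagram `Y₅₅₅`

Three embeddings of `Y₅₃₂` in `Y₅₅₅` (the rotations of the arms) carry the relations for the node
`f₁` in the group on `Y₅₃₂` to the six relations for the end nodes of `Y₅₅₅`.
-/

namespace Cfsg.Agent.Lib.Y532.Gamma

open Cfsg.Spor Cfsg.Spor.Bimonster Cfsg.Agent.Lib.TC.Core Cfsg.Agent.Lib.TC.Pres Cfsg.Agent.Lib.TC.Main
  Cfsg.Agent.Lib.TC.Enc Cfsg.Agent.Lib.TC.Chain Cfsg.Agent.Lib.TC.Iso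

set_option maxRecDepth 100000

/-- The column of a generator. -/
def colF : Gen → Nat
  | .a => 0
  | .b1 => 1
  | .c1 => 2
  | .d1 => 3
  | .e1 => 4
  | .f1 => 5
  | .b2 => 6
  | .c2 => 7
  | .d2 => 8
  | .e2 => 9
  | .f2 => 10
  | .b3 => 11
  | .c3 => 12
  | .d3 => 13
  | .e3 => 14
  | .f3 => 15

/-- The generator of a column. -/
def genF (c : Nat) : Gen :=
  [Gen.a,Gen.b1,Gen.c1,Gen.d1,Gen.e1,Gen.f1,Gen.b2,Gen.c2,Gen.d2,Gen.e2,Gen.f2,Gen.b3,Gen.c3,Gen.d3,Gen.e3,Gen.f3].getD c Gen.a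

/-- The sign of a column. -/
def sgnF (_ : Nat) : Bool := true

/-- The inverse column. -/
def invF (c : Nat) : Nat := c

/-- The columns. -/
def K : Cols Gen := ⟨16, colF, genF, sgnF, invF⟩

/-- The words of the further relators. -/
def extraW : List (List (Gen × Bool)) :=
  [[(Gen.a,true),(Gen.b1,true),(Gen.c1,true),(Gen.a,true),(Gen.b2,true),(Gen.c2,true),(Gen.a,true),(Gen.b3,true),(Gen.c3,true),(Gen.a,true),(Gen.b1,true),(Gen.c1,true),(Gen.a,true),(Gen.b2,true),(Gen.c2,true),(Gen.a,true),(Gen.b3,true),(Gen.c3,true),(Gen.a,true),(Gen.b1,true),(Gen.c1,true),(Gen.a,true),(Gen.b2,true),(Gen.c2,true),(Gen.a,true),(Gen.b3,true),(Gen.c3,true),(Gen.a,true),(Gen.b1,true),(Gen.c1,true),(Gen.a,true),(Gen.b2,true),(Gen.c2,true),(Gen.a,true),(Gen.b3,true),(Gen.c3,true),(Gen.a,true),(Gen.b1,true),(Gen.c1,true),(Gen.a,true),(Gen.b2,true),(Gen.c2,true),(Gen.a,true),(Gen.b3,true),(Gen.c3,true),(Gen.a,true),(Gen.b1,true),(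Gen.c1,true),(Gen.a,true),(Gen.b2,true),(Gen.c2,true),(Gen.a,true),(Gen.b3,true),(Gen.c3,true),(Gen.a,true),(Gen.b1,true),(Gen.c1,true),(Gen.a,true),(Gen.b2,true),(Gen.c2,true),(Gen.a,true),(Gen.b3,true),(Gen.c3,true),(Gen.a,true),(Gen.b1,true),(Gen.c1,true),(Gen.a,true),(Gen.b2,true),(Gen.c2,true),(Gen.a,true),(Gen.b3,true),(Gen.c3,true),(Gen.a,true),(Gen.b1,true),(Gen.c1,true),(Gen.a,true),(Gen.b2,true),(Gen.c2,true),(Gen.a,true),(Gen.b3,true),(Gen.c3,true),(Gen.a,true),(Gen.b1,true),(Gen.c1,true),(Gen.a,true),(Gen.b2,true),(Gen.c2,true),(Gen.a,true),(Gen.b3,true),(Gen.c3,true)]]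

/-- The further relators. -/
def extra' : List (FreeGroup Gen) := [(a * b1 * c1 * a * b2 * c2 * a * b3 * c3) ^ 10]

/-- The relators. -/
abbrev Rel : Set (FreeGroup Gen) :=
  coxRelators edges ∪ {r' | r' ∈ [(a * b1 * c1 * a * b2 * c2 * a * b3 * c3) ^ 10]}

theorem extra_eq : [(a * b1 * c1 * a * b2 * c2 * a * b3 * c3) ^ 10] = extraW.map FreeGroup.mk := rfl

/-- The words of the relators, in the order of application. -/
def rels : List (List Nat) :=
  [[0,0],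
   [1,0,1,0,1,0],
   [1,1],
   [2,0,2,0],
   [2,1,2,1,2,1],
   [2,2],
   [3,0,3,0],
   [3,1,3,1],
   [3,2,3,2,3,2],
   [3,3],
   [4,0,4,0],
   [4,1,4,1],
   [4,2,4,2],
   [4,3,4,3,4,3],
   [4,4],
   [5,0,5,0],
   [5,1,5,1],
   [5,2,5,2],
   [5,3,5,3],
   [5,4,5,4,5,4],
   [5,5],
   [6,0,6,0,6,0],
   [6,1,6,1],
   [6,2,6,2],
   [6,3,6,3],
   [6,4,6,4],
   [6,5,6,5],
   [6,6],
   [7,0,7,0],
   [7,1,7,1],
   [7,2,7,2],
   [7,3,7,3],
   [7,4,7,4],
   [7,5,7,5],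
   [7,6,7,6,7,6],
   [7,7],
   [8,0,8,0],
   [8,1,8,1],
   [8,2,8,2],
   [8,3,8,3],
   [8,4,8,4],
   [8,5,8,5],
   [8,6,8,6],
   [8,7,8,7,8,7],
   [8,8],
   [9,0,9,0],
   [9,1,9,1],
   [9,2,9,2],
   [9,3,9,3],
   [9,4,9,4],
   [9,5,9,5],
   [9,6,9,6],
   [9,7,9,7],
   [9,8,9,8,9,8],
   [9,9],
   [10,0,10,0],
   [10,1,10,1],
   [10,2,10,2],
   [10,3,10,3],
   [10,4,10,4],
   [10,5,10,5],
   [10,6,10,6],
   [10,7,10,7],
   [10,8,10,8],
   [10,9,10,9,10,9],
   [10,10],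
   [11,0,11,0,11,0],
   [11,1,11,1],
   [11,2,11,2],
   [11,3,11,3],
   [11,4,11,4],
   [11,5,11,5],
   [11,6,11,6],
   [11,7,11,7],
   [11,8,11,8],
   [11,9,11,9],
   [11,10,11,10],
   [11,11],
   [12,0,12,0],
   [12,1,12,1],
   [12,2,12,2],
   [12,3,12,3],
   [12,4,12,4],
   [12,5,12,5],
   [12,6,12,6],
   [12,7,12,7],
   [12,8,12,8],
   [12,9,12,9],
   [12,10,12,10],
   [12,11,12,11,12,11],
   [12,12],
   [13,0,13,0],
   [13,1,13,1],
   [13,2,13,2],
   [13,3,13,3],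
   [13,4,13,4],
   [13,5,13,5],
   [13,6,13,6],
   [13,7,13,7],
   [13,8,13,8],
   [13,9,13,9],
   [13,10,13,10],
   [13,11,13,11],
   [13,12,13,12,13,12],
   [13,13],
   [14,0,14,0],
   [14,1,14,1],
   [14,2,14,2],
   [14,3,14,3],
   [14,4,14,4],
   [14,5,14,5],
   [14,6,14,6],
   [14,7,14,7],
   [14,8,14,8],
   [14,9,14,9],
   [14,10,14,10],
   [14,11,14,11],
   [14,12,14,12],
   [14,13,14,13,14,13],
   [14,14],
   [15,0,15,0],
   [15,1,15,1],
   [15,2,15,2],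
   [15,3,15,3],
   [15,4,15,4],
   [15,5,15,5],
   [15,6,15,6],
   [15,7,15,7],
   [15,8,15,8],
   [15,9,15,9],
   [15,10,15,10],
   [15,11,15,11],
   [15,12,15,12],
   [15,13,15,13],
   [15,14,15,14,15,14],
   [15,15],
   [12,11,0,7,6,0,2,1,0,12,11,0,7,6,0,2,1,0,12,11,0,7,6,0,2,1,0,12,11,0,7,6,0,2,1,0,12,11,0,7,6,0,2,1,0,12,11,0,7,6,0,2,1,0,12,11,0,7,6,0,2,1,0,12,11,0,7,6,0,2,1,0,12,11,0,7,6,0,2,1,0,12,11,0,7,6,0,2,1,0]]

theorem hsound : chkSound K edges extraW rels = true := by decide +kernel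

theorem hrels : ∀ l ∈ rels, ∃ L, FreeGroup.mk L ∈ Rel ∧ l = K.word L :=
  hrels_of_chk (K := K) (edges := edges) (rels := rels) extra_eq hsound

theorem valid : K.Valid (R := Rel) where
  col_lt := by intro x; cases x <;> decide
  gen_col := by intro x; cases x <;> rfl
  sgn_col := by intro x; rfl
  inv_lt := fun c hc => hc
  col_gen := by decide
  inv_true := fun c _ _ h => absurd rfl h
  inv_false := fun c _ h => absurd h (by simp [K, sgnF])
  invol := by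
    intro c hc hi
    have hc' : c < 16 := hc
    interval_cases c
    · exact ⟨rfl, node_invol (edges := edges) (by decide)⟩
    · exact ⟨rfl, node_invol (edges := edges) (by decide)⟩
    · exact ⟨rfl, node_invol (edges := edges) (by decide)⟩
    · exact ⟨rfl, node_invol (edges := edges) (by decide)⟩
    · exact ⟨rfl, node_invol (edges := edges) (by decide)⟩
    · exact ⟨rfl, node_invol (edges := edges) (by decide)⟩
    · exact ⟨rfl, node_invol (edges := edges) (by decide)⟩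
    · exact ⟨rfl, node_invol (edges := edges) (by decide)⟩
    · exact ⟨rfl, node_invol (edges := edges) (by decide)⟩
    · exact ⟨rfl, node_invol (edges := edges) (by decide)⟩
    · exact ⟨rfl, node_invol (edges := edges) (by decide)⟩
    · exact ⟨rfl, node_invol (edges := edges) (by decide)⟩
    · exact ⟨rfl, node_invol (edges := edges) (by decide)⟩
    · exact ⟨rfl, node_invol (edges := edges) (by decide)⟩
    · exact ⟨rfl, node_invol (edges := edges) (by decide)⟩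
    · exact ⟨rfl, node_invol (edges := edges) (by decide)⟩

/-- The letters of the group on `Y₅₅₅` with the spider relation. -/
noncomputable abbrev EΓ : Nat → PresentedGroup Rel := K.E Rel

theorem rels_one : ∀ l ∈ rels, prodA EΓ l = 1 := rel_prodA_one valid hrels

theorem prodA_map (σ : Nat → Nat) (l : List Nat) :
    prodA (fun c => EΓ (σ c)) l = prodA EΓ (l.map σ) := by
  induction l with
  | nil => rfl
  | cons z l ih => rw [prodA_cons, List.map_cons, prodA_cons, ih]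

/-- The two relations for the image of `f₁`. -/
abbrev Rels (σ : Nat → Nat) : Prop :=
    EΓ (σ 5) = (EΓ (σ 0) * EΓ (σ 1) * EΓ (σ 6) * EΓ (σ 9) * EΓ (σ 2) * EΓ (σ 7) * EΓ (σ 3)) ^ 9 ∧
    EΓ (σ 5) = (EΓ (σ 0) * EΓ (σ 1) * EΓ (σ 9) * EΓ (σ 6) * EΓ (σ 2) * EΓ (σ 10) * EΓ (σ 3)) ^ 9

/-- An embedding of the diagrams carries the two relations. -/
theorem transport (σ : Nat → Nat) (hσ : ∀ c, c < 11 → σ c < 16)
    (hrot : Cfsg.Agent.Lib.Y532.G.rels.all (fun l => isRotIn (l.map σ) rels) = true) :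
    Rels σ := by
  obtain ⟨ψ, hψ⟩ := exists_hom_of_letters Cfsg.Agent.Lib.Y532.G.valid Cfsg.Agent.Lib.Y532.G.hR
    (fun c => EΓ (σ c))
    (fun c hc => by
      have h1 : Cfsg.Agent.Lib.Y532.G.K.inv c = c := by
        have hc' : c < 11 := hc
        interval_cases c <;> rfl
      rw [h1]
      have h2 := (Cols.E_inv valid (σ c) (hσ c hc)).2
      exact h2)
    (fun l hl => by
      rw [prodA_map]
      obtain ⟨j, hj⟩ := isRotIn_spec (List.all_eq_true.1 hrot l hl)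
      exact prodA_of_rotN _ _ j (rels_one _ hj))
  have hψ' : ∀ c, c < 11 → ψ (Cfsg.Agent.Lib.Y532.Hom.EG c) = EΓ (σ c) := hψ
  constructor
  · have h := congrArg ψ Cfsg.Agent.Lib.Y532.Hom.rel1
    simpa only [map_mul, map_pow, hψ' _ (by decide : 0 < 11), hψ' _ (by decide : 1 < 11),
      hψ' _ (by decide : 2 < 11), hψ' _ (by decide : 3 < 11), hψ' _ (by decide : 5 < 11),
      hψ' _ (by decide : 6 < 11), hψ' _ (by decide : 7 < 11), hψ' _ (by decide : 9 < 11)] using h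
  · have h := congrArg ψ Cfsg.Agent.Lib.Y532.Hom.rel2
    simpa only [map_mul, map_pow, hψ' _ (by decide : 0 < 11), hψ' _ (by decide : 1 < 11),
      hψ' _ (by decide : 2 < 11), hψ' _ (by decide : 3 < 11), hψ' _ (by decide : 5 < 11),
      hψ' _ (by decide : 6 < 11), hψ' _ (by decide : 9 < 11), hψ' _ (by decide : 10 < 11)] using h

/-- The first embedding. -/
def σ₀ (c : Nat) : Nat := [0, 1, 2, 3, 4, 5, 6, 7, 8, 11, 12].getD c 0

/-- The second embedding. -/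
def σ₁ (c : Nat) : Nat := [0, 6, 7, 8, 9, 10, 11, 12, 13, 1, 2].getD c 0

/-- The third embedding. -/
def σ₂ (c : Nat) : Nat := [0, 11, 12, 13, 14, 15, 1, 2, 3, 6, 7].getD c 0

theorem t0 : Rels σ₀ := transport σ₀ (by decide) (by decide +kernel)

theorem t1 : Rels σ₁ := transport σ₁ (by decide) (by decide +kernel)

theorem t2 : Rels σ₂ := transport σ₂ (by decide) (by decide +kernel)

end Cfsg.Agent.Lib.Y532.Gamma
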