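import Cfsg.Agent.Lib.Y532.Bound
import Cfsg.Agent.Lib.TC.Iso
import Cfsg.Agent.Lib.TC.D.Fi23Chain.Main

/-!
# The group on `Y₅₃₂` is a double cover of `Fi₂₃`

The group on `Y₅₃₂` with the spider relation maps onto `Fi₂₃`, with the node `f₁` sent to a suitable
word; by the bound on its order, the kernel has at most two elements, and it contains an element
of odd length.  Hence an even word with trivial image in `Fi₂₃` is trivial.
-/

namespace Cfsg.Agent.Lib.Y532.Hom

open Cfsg.Agent.Lib.TC.Core Cfsg.Agent.Lib.TC.Pres Cfsg.Agent.Lib.TC.Perm Cfsg.Agent.Lib.TC.Main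
  Cfsg.Agent.Lib.TC.Chain Cfsg.Agent.Lib.TC.Iso Cfsg.Agent.Lib.TC.Chain.PermLev

set_option maxRecDepth 100000

/-- The relators of `Fi₂₃`. -/
abbrev RF := Cfsg.Agent.Lib.TC.G.Fi23.Rel

/-- The letters of `Fi₂₃`. -/
noncomputable abbrev E23 : Nat → PresentedGroup RF := Cfsg.Agent.Lib.TC.G.Fi23.K.E RF

/-- The relators on `Y₅₃₂`. -/
abbrev RG := Cfsg.Agent.Lib.Y532.G.Rel

/-- The letters on `Y₅₃₂`. -/
noncomputable abbrev EG : Nat → PresentedGroup RG := Cfsg.Agent.Lib.Y532.G.K.E RG

/-- The repetition of a word. -/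
def rep : Nat → List Nat → List Nat
  | 0, _ => []
  | n + 1, l => l ++ rep n l

theorem prodA_rep {Γ : Type*} [Group Γ] (E : Nat → Γ) (n : Nat) (l : List Nat) :
    prodA E (rep n l) = (prodA E l) ^ n := by
  induction n with
  | zero => simp [rep]
  | succ n ih => rw [rep, prodA_append, ih, pow_succ]

theorem hcard23 : Nat.card (PresentedGroup RF) = 4089470473293004800 :=
  Cfsg.Agent.Lib.TC.D.Fi23Chain.Main.simple_card.2

/-- The points of a base of `Fi₂₃` on its permutation table. -/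
def base23 : List Nat := allBase [0] Cfsg.Agent.Lib.TC.D.Fi23Chain.Lev.levels

theorem word_one (w : List Nat) (hw : ∀ z ∈ w, z < Cfsg.Agent.Lib.TC.G.Fi23.K.k)
    (hfix : fixAll Cfsg.Agent.Lib.TC.D.Fi23a.Tab.pt base23 w = true) : prodA E23 w = 1 :=
  word_spec Cfsg.Agent.Lib.TC.D.Fi23a.Ok.ok _ hcard23 (by norm_num)
    Cfsg.Agent.Lib.TC.D.Fi23Chain.Lev.levels Cfsg.Agent.Lib.TC.D.Fi23Chain.Lev.hlev
    (by decide +kernel) w hw hfix

/-- The image of the node `f₁`: the image of `(a b₁ b₂ b₃ c₁ c₂ d₁)⁹`. -/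
def zw : List Nat := rep 9 [6, 1, 5, 8, 2, 4, 3]

/-- The words of the images of the nodes of `Y₅₃₂`. -/
def mw (c : Nat) : List Nat :=
  ([[3], [4], [5], [6], [7], zw, [2], [1], [0], [8], [9]] : List (List Nat)).getD c []

/-- The images of the nodes of `Y₅₃₂`. -/
noncomputable def F (c : Nat) : PresentedGroup RF := prodA E23 (mw c)

theorem prodA_F (l : List Nat) : prodA F l = prodA E23 (l.flatMap mw) := by
  induction l with
  | nil => rfl
  | cons z l ih => rw [prodA_cons, List.flatMap_cons, prodA_append, ih]; rfl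

/-- The check that a word of `Y₅₃₂` has trivial image. -/
noncomputable def fixW (w : List Nat) : Bool :=
  andB (decide (∀ z ∈ w.flatMap mw, z < 10))
    (fixAll Cfsg.Agent.Lib.TC.D.Fi23a.Tab.pt base23 (w.flatMap mw))

theorem prodA_F_one {w : List Nat} (h : fixW w = true) : prodA F w = 1 := by
  rw [fixW, andB_eq_true] at h
  rw [prodA_F]
  exact word_one _ (of_decide_eq_true h.1) h.2

theorem hF_sq : ∀ c, c < 11 → fixW [c, c] = true := by
  decide +kernel

theorem hF_rels : Cfsg.Agent.Lib.Y532.G.rels.all fixW = true := by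
  decide +kernel

theorem F_inv (c : Nat) (hc : c < 11) :
    F (Cfsg.Agent.Lib.Y532.G.K.inv c) = (F c)⁻¹ := by
  have h1 : Cfsg.Agent.Lib.Y532.G.K.inv c = c := by
    interval_cases c <;> rfl
  rw [h1]
  have h2 := prodA_F_one (hF_sq c hc)
  simp only [prodA_cons, prodA_nil, one_mul] at h2
  exact eq_inv_of_mul_eq_one_left h2

/-- The homomorphism to `Fi₂₃`. -/
theorem exists_pi : ∃ π : PresentedGroup RG →* PresentedGroup RF,
    ∀ c, c < Cfsg.Agent.Lib.Y532.G.K.k → π (EG c) = F c :=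
  exists_hom_of_letters Cfsg.Agent.Lib.Y532.G.valid Cfsg.Agent.Lib.Y532.G.hR F F_inv
    (fun l hl => prodA_F_one (List.all_eq_true.1 hF_rels l hl))

theorem prodA_neg (l : List Nat) : prodA (fun _ => (-1 : ℤˣ)) l = (-1) ^ l.length := by
  induction l with
  | nil => simp
  | cons z l ih => rw [prodA_cons, ih, List.length_cons, pow_succ]

theorem hrels_even : Cfsg.Agent.Lib.Y532.G.rels.all (fun l => decide (l.length % 2 = 0)) = true := by
  decide +kernel

/-- The parity of a word. -/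
theorem exists_eps : ∃ ε : PresentedGroup RG →* ℤˣ,
    ∀ c, c < Cfsg.Agent.Lib.Y532.G.K.k → ε (EG c) = -1 :=
  exists_hom_of_letters Cfsg.Agent.Lib.Y532.G.valid Cfsg.Agent.Lib.Y532.G.hR (fun _ => (-1 : ℤˣ))
    (fun _ _ => by simp)
    (fun l hl => by
      have h1 := of_decide_eq_true (List.all_eq_true.1 hrels_even l hl)
      rw [prodA_neg]
      exact Even.neg_one_pow (Nat.even_iff.2 h1))

/-- The word of the element of the kernel: `(d₂ c₂ b₂ a b₁ c₁ b₃)⁹`. -/
def uw : List Nat := rep 9 [9, 2, 1, 0, 6, 7, 8]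

theorem huw : fixW uw = true := by
  decide +kernel

theorem huw_lt : ∀ z ∈ uw, z < 11 := by decide

theorem huw_len : uw.length = 63 := by decide

/-- The column of `Y₅₃₂` of a letter of `Fi₂₃`. -/
def back (c : Nat) : Nat := [8, 7, 6, 0, 1, 2, 3, 4, 9, 10].getD c 0

theorem hback : ∀ c, c < 10 → mw (back c) = [c] ∧ back c < 11 := by decide

/-- An even word with trivial image is trivial. -/
theorem eq_one_of_even (w : List Nat) (hlt : ∀ z ∈ w, z < 11) (hev : w.length % 2 = 0)
    (hfix : fixW w = true) : prodA EG w = 1 := by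
  classical
  obtain ⟨π, hπ⟩ := exists_pi
  obtain ⟨ε, hε⟩ := exists_eps
  have hπw : ∀ l : List Nat, (∀ z ∈ l, z < 11) → π (prodA EG l) = prodA F l :=
    fun l hl => map_prodA π EG F 11 hπ l hl
  have hεw : ∀ l : List Nat, (∀ z ∈ l, z < 11) → ε (prodA EG l) = (-1) ^ l.length := fun l hl => by
    rw [← prodA_neg]
    exact map_prodA ε EG (fun _ => (-1 : ℤˣ)) 11 hε l hl
  -- the homomorphism is onto
  have hsurj : π.range = ⊤ := by
    rw [eq_top_iff, ← Cols.closure_E Cfsg.Agent.Lib.TC.G.Fi23.valid, Subgroup.closure_le]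
    rintro _ ⟨c, hc, rfl⟩
    have hc' : c < 10 := hc
    obtain ⟨h1, h2⟩ := hback c hc'
    refine ⟨EG (back c), ?_⟩
    rw [hπ _ h2, F, h1]
    simp
  -- the bound on the kernel
  have hb := Cfsg.Agent.Lib.Y532.Bound.bound
  have hfinG : Finite (PresentedGroup RG) := Nat.finite_of_card_ne_zero hb.1
  have hcardK : Nat.card π.ker ≤ 2 := by
    have h1 := Subgroup.card_mul_index π.ker
    rw [Subgroup.index_ker, hsurj, Subgroup.card_top, hcard23] at h1
    have h2 := hb.2
    rw [← h1] at h2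
    omega
  -- the elements of the kernel
  set x := prodA EG w with hx
  set u := prodA EG uw with hu
  have hxk : x ∈ π.ker := by
    rw [MonoidHom.mem_ker, hx, hπw w hlt]
    exact prodA_F_one hfix
  have huk : u ∈ π.ker := by
    rw [MonoidHom.mem_ker, hu, hπw uw huw_lt]
    exact prodA_F_one huw
  have hεx : ε x = 1 := by
    rw [hx, hεw w hlt]
    exact Even.neg_one_pow (Nat.even_iff.2 hev)
  have hεu : ε u = -1 := by
    rw [hu, hεw uw huw_lt, huw_len]
    exact Odd.neg_one_pow (by decide)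
  have hu1 : u ≠ 1 := by
    intro h
    rw [h, map_one] at hεu
    exact absurd hεu (by decide)
  have hxu : x ≠ u := by
    intro h
    rw [h, hεu] at hεx
    exact absurd hεx (by decide)
  by_contra hx1
  -- three elements in the kernel
  have : Fintype π.ker := Fintype.ofFinite _
  let S : Finset π.ker := {⟨1, π.ker.one_mem⟩, ⟨x, hxk⟩, ⟨u, huk⟩}
  have hS : S.card = 3 := by
    rw [Finset.card_eq_three]
    refine ⟨_, _, _, ?_, ?_, ?_, rfl⟩
    · exact fun h => hx1 (congrArg Subtype.val h).symm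
    · exact fun h => hu1 (congrArg Subtype.val h).symm
    · exact fun h => hxu (congrArg Subtype.val h)
  have h3 := Finset.card_le_univ S
  rw [hS, ← Nat.card_eq_fintype_card] at h3
  omega

/-- The first relation for `f₁`. -/
theorem rel1 : EG 5 = (EG 0 * EG 1 * EG 6 * EG 9 * EG 2 * EG 7 * EG 3) ^ 9 := by
  have h := eq_one_of_even (5 :: rep 9 [3, 7, 2, 9, 6, 1, 0]) (by decide) (by decide)
    (by decide +kernel)
  rw [prodA_cons, prodA_rep] at h
  simp only [prodA_cons, prodA_nil, one_mul] at h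
  have h1 := (Cols.E_inv Cfsg.Agent.Lib.Y532.G.valid 5 (by decide)).2
  have h2 : EG 5 = (EG 5)⁻¹ := h1
  rw [h2]
  exact (eq_inv_of_mul_eq_one_left h).symm ▸ rfl

/-- The second relation for `f₁`. -/
theorem rel2 : EG 5 = (EG 0 * EG 1 * EG 9 * EG 6 * EG 2 * EG 10 * EG 3) ^ 9 := by
  have h := eq_one_of_even (5 :: rep 9 [3, 10, 2, 6, 9, 1, 0]) (by decide) (by decide)
    (by decide +kernel)
  rw [prodA_cons, prodA_rep] at h
  simp only [prodA_cons, prodA_nil, one_mul] at h
  have h1 := (Cols.E_inv Cfsg.Agent.Lib.Y532.G.valid 5 (by decide)).2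
  have h2 : EG 5 = (EG 5)⁻¹ := h1
  rw [h2]
  exact (eq_inv_of_mul_eq_one_left h).symm ▸ rfl

end Cfsg.Agent.Lib.Y532.Hom
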